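import Cfsg.Agent.H340.OddLie
import Cfsg.Agent.H65.CN.Ext
/-!
# Composition factors: the linear, unitary and symplectic groups only (helper990)

`BaseN r P` : the linear, unitary and symplectic simple groups in characteristic `r` satisfy `P`.
Variants of the theorems of `H340/RingInv`, `H340/SemiUnit` without the orthogonal groups.
-/

set_option autoImplicit false
set_option linter.unusedSectionVars false

namespace Cfsg.Agent.H990.OI

open Subgroup Cfsg Cfsg.Agent.BpLin Cfsg.Agent.H340
open Cfsg.Agent.ClassicalGeometry.SympBasic Cfsg.Agent.ClassicalGeometry.SympAutSemi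
  Cfsg.Agent.ClassicalGeometry.SympIso
open scoped MatrixGroups Matrix commutatorElement

universe u v w

/-- The linear, unitary and symplectic simple groups in characteristic `r` satisfy `P`. -/
structure BaseN (r : ℕ) (P : ∀ (S : Type u) [Group S], Prop) : Prop where
  psl : ∀ (F : Type) [Field F] [Finite F] [CharP F r] (n : ℕ),
    IsSimpleGroup (Matrix.ProjectiveSpecialLinearGroup (Fin n) F) → ∀ (S : Type u) [Group S],
    Nonempty (S ≃* Matrix.ProjectiveSpecialLinearGroup (Fin n) F) → P S
  psu : ∀ (F : Type) [Field F] [Fintype F] [CharP F r] (n q : ℕ), Fintype.card F = q ^ 2 → 3 ≤ n →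
    IsSimpleGroup (PSU n F q) → ∀ (S : Type u) [Group S], Nonempty (S ≃* PSU n F q) → P S
  psp : ∀ (F : Type) [Field F] [Finite F] [CharP F r] (m : ℕ), 2 ≤ m → IsSimpleGroup (PSp m F) →
    ∀ (S : Type u) [Group S], Nonempty (S ≃* PSp m F) → P S

variable {r : ℕ} {P : ∀ (S : Type u) [Group S], Prop}

section Linear

variable {F : Type} [Field F] [Finite F] [CharP F r]

theorem cf_sl (hP : BaseN r P) (n : ℕ) : CF P (Matrix.SpecialLinearGroup (Fin n) F) := by
  rcases Nat.lt_or_ge n 2 with hn | hn
  · apply CF.of_solvable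
    have : Subsingleton (Fin n) := by
      have : n = 0 ∨ n = 1 := by omega
      rcases this with rfl | rfl <;> infer_instance
    have : Subsingleton (Matrix.SpecialLinearGroup (Fin n) F) := inferInstance
    infer_instance
  · by_cases hs : IsSimpleGroup (Matrix.ProjectiveSpecialLinearGroup (Fin n) F)
    · exact CF.of_central (Z := center _) le_rfl (CF.of_simple (hP.psl F n hs))
    · rcases Nat.eq_or_lt_of_le hn with rfl | hn
      · by_cases h : 4 ≤ Nat.card F
        · exact absurd (Matrix.ProjectiveSpecialLinearGroup.rank_two_simple h) hs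
        · exact CF.of_solvable (isSolvable_sl_two h)
      · exact absurd (LieClassical.SLGen.psl_isSimpleGroup (by rw [Fintype.card_fin]; exact hn)) hs

theorem cf_gl (hP : BaseN r P) (n : ℕ) : CF P (GL (Fin n) F) := by
  refine CF.of_hom_comm (Matrix.GeneralLinearGroup.det (n := Fin n) (R := F)) ?_
  rw [← range_toGL n]
  exact (cf_sl hP n).congr (MonoidHom.ofInjective (Matrix.SpecialLinearGroup.toGL_injective))

/-- the general linear group of a vector space -/
theorem cf_glV (hP : BaseN r P) {V : Type} [AddCommGroup V] [Module F V] [Module.Finite F V] :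
    CF P (V ≃ₗ[F] V) := by
  let b := Module.finBasis F V
  let e1 : LinearMap.GeneralLinearGroup F V ≃* (V ≃ₗ[F] V) := LinearMap.GeneralLinearGroup.generalLinearEquiv F V
  let e2 : GL (Fin (Module.finrank F V)) F ≃* LinearMap.GeneralLinearGroup F V :=
    (Units.mapEquiv (LinearMap.toMatrixAlgEquiv b).toMulEquiv).symm
  exact (cf_gl (F := F) hP _).congr (e2.trans e1)

end Linear

section Unitary

variable {F : Type} [Field F] [Fintype F] [CharP F r] {q : ℕ}

theorem cf_su (hP : BaseN r P) (hF : Fintype.card F = q ^ 2) (n : ℕ) : CF P ↥(SU n F q) := by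
  rcases Nat.lt_or_ge n 2 with hn | hn
  · apply CF.of_solvable
    have : Subsingleton (Fin n) := by
      have : n = 0 ∨ n = 1 := by omega
      rcases this with rfl | rfl <;> infer_instance
    have : Subsingleton (Matrix.SpecialLinearGroup (Fin n) F) := inferInstance
    have : Subsingleton ↥(SU n F q) := inferInstance
    infer_instance
  · rcases Nat.eq_or_lt_of_le hn with rfl | hn
    · obtain ⟨_, _, _, _, θ, -⟩ := Phan.exists_model hF
      exact (cf_sl (F := Phan.fixedField hF) hP 2).congr θ
    · by_cases h : n = 3 ∧ q = 2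
      · obtain ⟨rfl, rfl⟩ := h
        have h1 := (S0282.result (F := F) hF).2
        exact CF.of_central (Z := center _) le_rfl (CF.of_solvable h1)
      · have h1 := S0283.result hF n hn h
        exact CF.of_central (Z := center _) le_rfl (CF.of_simple (hP.psu F n q hF hn h1))

theorem cf_gu (hP : BaseN r P) (hF : Fintype.card F = q ^ 2) (n : ℕ) : CF P ↥(GU n F q) := by
  refine CF.of_hom_comm ((Matrix.GeneralLinearGroup.det (n := Fin n) (R := F)).comp (GU n F q).subtype) ?_
  have hinj : Function.Injective (suToGU n F q) := by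
    intro a b hab
    apply Subtype.ext
    apply Subtype.ext
    rw [← coe_suToGU, ← coe_suToGU, hab]
  have hr : (suToGU n F q).range =
      ((Matrix.GeneralLinearGroup.det (n := Fin n) (R := F)).comp (GU n F q).subtype).ker := by
    ext A
    constructor
    · rintro ⟨g, rfl⟩
      rw [MonoidHom.mem_ker]
      apply Units.ext
      change Matrix.det ((suToGU n F q g : GL (Fin n) F) : Matrix (Fin n) (Fin n) F) = 1
      rw [coe_suToGU]
      exact g.1.2
    · intro h
      rw [MonoidHom.mem_ker] at h
      have h1 : Matrix.det ((A : GL (Fin n) F) : Matrix (Fin n) (Fin n) F) = 1 := congrArg Units.val h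
      refine ⟨⟨⟨((A : GL (Fin n) F) : Matrix (Fin n) (Fin n) F), h1⟩, ?_⟩, ?_⟩
      · exact A.2
      · apply Subtype.ext
        apply Units.ext
        rw [coe_suToGU]
  rw [← hr]
  exact (cf_su hP hF n).congr (MonoidHom.ofInjective hinj)

end Unitary

section Symp

variable {F : Type} [Field F] [Finite F] [CharP F r]

theorem cf_sp_one (hP : BaseN r P) : CF P ↥(Matrix.symplecticGroup (Fin 1) F) := by
  let e : (Fin 1 ⊕ Fin 1) ≃ Fin 2 := finSumFinEquiv
  let g : ↥(Matrix.symplecticGroup (Fin 1) F) →* Matrix.SpecialLinearGroup (Fin 2) F :=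
    { toFun := fun A => ⟨Matrix.reindex e e A.1, by
        rw [Matrix.det_reindex_self]; exact (S0244.result A.1).1 A.2⟩
      map_one' := by
        apply Subtype.ext
        change Matrix.reindex e e 1 = 1
        simp
      map_mul' := fun A B => by
        apply Subtype.ext
        change Matrix.reindex e e (A.1 * B.1) = Matrix.reindex e e A.1 * Matrix.reindex e e B.1
        simp [Matrix.submatrix_mul_equiv] }
  have hg : Function.Bijective g := by
    constructor
    · intro A B h
      apply Subtype.ext
      exact (Matrix.reindex e e).injective (congrArg Subtype.val h)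
    · intro B
      refine ⟨⟨(Matrix.reindex e e).symm B.1, (S0244.result _).2 ?_⟩, ?_⟩
      · rw [Matrix.reindex_symm, Matrix.det_reindex_self]; exact B.2
      · apply Subtype.ext
        exact (Matrix.reindex e e).apply_symm_apply B.1
  exact (cf_sl (F := F) hP 2).congr (MulEquiv.ofBijective g hg).symm

/-- only for `r ≠ 2` -/
theorem cf_symplectic (hr2 : r ≠ 2) (hP : BaseN r P) (m : ℕ) : CF P ↥(Matrix.symplecticGroup (Fin m) F) := by
  have := Fintype.ofFinite F
  rcases Nat.lt_or_ge m 2 with hm | hm
  · interval_cases m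
    · apply CF.of_solvable
      have : Subsingleton (Matrix (Fin 0 ⊕ Fin 0) (Fin 0 ⊕ Fin 0) F) := inferInstance
      have : Subsingleton ↥(Matrix.symplecticGroup (Fin 0) F) := inferInstance
      infer_instance
    · exact cf_sp_one hP
  by_cases hs : IsSimpleGroup (PSp m F)
  · exact CF.of_central (Z := center _) le_rfl (CF.of_simple (hP.psp F m hm hs))
  exfalso
  -- use the theorem for all classical groups with the trivial predicate to see that `PSp` is simple
  have h3 : 3 ≤ Fintype.card F := by
    by_contra h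
    have hq : 2 ≤ Fintype.card F := Fintype.one_lt_card
    have hq2 : Fintype.card F = 2 := by omega
    have h1 : CharP F 2 := charP_of_card_eq_prime hq2
    exact hr2 (CharP.eq F ‹CharP F r› h1)
  have hperf := LieClassical.SympPerfect.commutator_eq_top (m := m) (F := F) (by
    rcases Nat.eq_or_lt_of_le hm with h | h
    · exact Or.inr (Or.inl ⟨h.symm, h3⟩)
    · exact Or.inl h)
  have hgen : transvGroup m F = ⊤ := Cfsg.Agent.S0765.result m
  apply hs
  refine @IsSimpleGroup.mk _ _ ?_ ?_
  · by_contra hsub
    rw [not_nontrivial_iff_subsingleton] at hsub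
    have h1 : center ↥(Matrix.symplecticGroup (Fin m) F) = ⊤ := by
      rw [← QuotientGroup.subsingleton_iff]
      exact hsub
    have h2 : commutator ↥(Matrix.symplecticGroup (Fin m) F) = ⊥ := by
      rw [_root_.commutator_def, Subgroup.commutator_eq_bot_iff_le_centralizer]
      intro x _
      have hx : x ∈ center ↥(Matrix.symplecticGroup (Fin m) F) := by rw [h1]; exact mem_top x
      exact center_le_centralizer _ hx
    rw [hperf] at h2
    have h3 := LieClassical.SympCount.card_symplecticGroup (F := F) m
    have h4 : Nat.card ↥(Matrix.symplecticGroup (Fin m) F) = 1 := by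
      rw [← Nat.card_congr (Subgroup.topEquiv (G := ↥(Matrix.symplecticGroup (Fin m) F))).toEquiv, h2]
      exact Subgroup.card_bot
    rw [h4] at h3
    have h5 : (Fintype.card F) ^ (m ^ 2) ∣ 1 := by rw [h3]; exact Dvd.intro _ rfl
    have h6 : 1 < Fintype.card F := Fintype.one_lt_card
    have h7 : (Fintype.card F) ^ (m ^ 2) = 1 := Nat.dvd_one.1 h5
    have h8 : 1 < (Fintype.card F) ^ (m ^ 2) := Nat.one_lt_pow (by positivity) h6
    omega
  · intro N hN
    have h1 : (N.comap (QuotientGroup.mk' (center ↥(Matrix.symplecticGroup (Fin m) F)))).Normal := hN.comap _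
    by_cases hle : N.comap (QuotientGroup.mk' (center ↥(Matrix.symplecticGroup (Fin m) F))) ≤ center _
    · left
      rw [eq_bot_iff]
      intro x hx
      obtain ⟨y, rfl⟩ := QuotientGroup.mk_surjective x
      exact (QuotientGroup.eq_one_iff y).2 (hle hx)
    · right
      rw [eq_top_iff]
      intro x _
      obtain ⟨y, rfl⟩ := QuotientGroup.mk_surjective x
      have h2 := LieClassical.SympSimple.commutator_le_of_not_le_center hgen _ hle
      rw [hperf] at h2
      exact h2 (mem_top y)

theorem cf_bilin {V : Type} [AddCommGroup V] [Module F V] {B : LinearMap.BilinForm F V} (hr2 : r ≠ 2)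
    (hP : BaseN r P) [Module.Finite F V] (hA : B.IsAlt)
    (hnd : ∀ u, (∀ v, B u v = 0) → u = 0) : CF P ↥(BpCl.Iso (fun u v => B u v)) := by
  obtain ⟨k, e, he⟩ := BpCl.exists_coords hA hnd
  obtain ⟨f⟩ := BpCl.nonempty_symp e he
  exact (cf_symplectic hr2 hP k).congr f

end Symp

section Rings

theorem cf_units_matrix {D : Type} [DivisionRing D] [Finite D] [CharP D r] (hB : BaseN r P) (d : ℕ) :
    CF P (Matrix (Fin d) (Fin d) D)ˣ := by
  let _ : Field D := littleWedderburn D
  exact cf_gl (F := D) hB d

/-- The group of units of a finite semisimple ring. -/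
theorem cf_units (hr : r.Prime) (hB : BaseN r P) (E : Type) [Ring E] [Finite E] [IsSemisimpleRing E]
    [CharP E r] : CF P Eˣ := by
  obtain ⟨n, D, d, hD, hd, ⟨e⟩⟩ := IsSemisimpleRing.exists_ringEquiv_pi_matrix_divisionRing E
  have hfin : Finite (∀ i, Matrix (Fin (d i)) (Fin (d i)) (D i)) := Finite.of_equiv E e.toEquiv
  have hfin2 : ∀ i, Finite (Matrix (Fin (d i)) (Fin (d i)) (D i)) := fun i =>
    Finite.of_surjective (fun x : ∀ i, Matrix (Fin (d i)) (Fin (d i)) (D i) => x i)
      (fun a => ⟨Pi.single i a, by simp⟩)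
  have hfin3 : ∀ i, Finite (D i) := fun i =>
    Finite.of_injective (fun c : D i => Matrix.scalar (Fin (d i)) c) (fun a b h => by
      have : Nonempty (Fin (d i)) := ⟨0⟩
      exact Matrix.scalar_inj.mp h)
  have h1 : CF P (∀ i, (Matrix (Fin (d i)) (Fin (d i)) (D i))ˣ) :=
    CF.pi fun i => by
      have := charP_factor hr e i
      exact cf_units_matrix hB (d i)
  exact h1.congr (MulEquiv.piUnits.symm.trans (Units.mapEquiv e.symm.toMulEquiv))

theorem cf_fixU (hr : r.Prime) (hr2 : r ≠ 2) (hB : BaseN r P) {A : Type} [Ring A] [Finite A] [IsSemisimpleRing A]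
    [CharP A r] (τ : A ≃+* A) (hτ : ∀ a, τ (τ a) = a) : CF P ↥(fixU τ) := by
  have h1 : IsSemisimpleRing ↥(fixRing τ) := isSemisimpleRing_fixed τ hτ (isUnit_two hr hr2)
  have h2 : CharP ↥(fixRing τ) r := charP_subring _
  exact (cf_units hr hB ↥(fixRing τ)).congr (fixUEquiv τ)

end Rings

section Two

/-- two surjections with trivial common kernel -/
theorem cf_two {N : Type v} [Group N] {G₁ G₂ : Type w} [Group G₁] [Group G₂] (h₁ : CF P G₁) (h₂ : CF P G₂)
    (f₁ : N →* G₁) (f₂ : N →* G₂) (s₁ : Function.Surjective f₁) (s₂ : Function.Surjective f₂)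
    (hk : ∀ x, f₁ x = 1 → f₂ x = 1 → x = 1) : CF P N := by
  refine CF.of_ext f₁ s₁ (h₂.of_injective (f₂.comp f₁.ker.subtype) ?_ ?_) h₁
  · rw [← MonoidHom.ker_eq_bot_iff, eq_bot_iff]
    intro x hx
    rw [mem_bot]
    exact Subtype.ext (hk x x.2 hx)
  · have h2 : (f₂.comp f₁.ker.subtype).range = f₁.ker.map f₂ := by
      rw [MonoidHom.range_comp, Subgroup.range_subtype]
    rw [h2]
    exact ((inferInstance : f₁.ker.Normal).map f₂ s₂).isSubnormal

end Two

end Cfsg.Agent.H990.OI
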