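import Cfsg.Agent.H990.OI.Base
import Cfsg.Agent.H323.OI.Pieces
/-!
# S3325: a row with good composition factors is impossible (helper990)

`false_of_cf` : if the composition factors of `C_S(α)` are linear, unitary or symplectic groups, there is no row `RowS`.
-/

set_option autoImplicit false
set_option linter.unusedSectionVars false

namespace Cfsg.Agent.H990.OI

open Subgroup Cfsg Cfsg.Agent.BpLin Cfsg.Agent.H340 Cfsg.Agent.H323.OI

/-- the names excluded by `PName1` -/
def Cls (X : Type) [Group X] : Prop := IsPSL X ∨ IsPSU X ∨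
  ∃ (F' : Type) (_ : Field F') (_ : Fintype F') (m : ℕ), Nonempty (X ≃* PSp m F')

theorem baseN_cls {r : ℕ} (hr : r.Prime) (hr2 : r ≠ 2) : BaseN.{0} r (fun S _ => Cls S) where
  psl F _ _ _ n hs S _ := by
    rintro ⟨e⟩
    have := Fintype.ofFinite F
    have hn : 2 ≤ n := by
      by_contra hn
      have : Subsingleton (Fin n) := by
        have : n = 0 ∨ n = 1 := by omega
        rcases this with rfl | rfl <;> infer_instance
      have : Subsingleton (Matrix.SpecialLinearGroup (Fin n) F) := inferInstance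
      have : Subsingleton (Matrix.ProjectiveSpecialLinearGroup (Fin n) F) :=
        (QuotientGroup.mk'_surjective _).subsingleton
      exact not_nontrivial _ hs.toNontrivial
    refine Or.inl ⟨F, inferInstance, inferInstance, n, hn, ?_, ⟨e⟩⟩
    rintro rfl
    by_contra h4
    exact not_simple_sl_two_three (F := F) (by rwa [Nat.card_eq_fintype_card]) hs
  psu F _ _ _ n q hF hn hs S _ := by
    rintro ⟨e⟩
    have h1 := card_ge_of_odd (F := F) hr hr2
    refine Or.inr (Or.inl ⟨F, inferInstance, inferInstance, n, q, hF, hn, ?_, ⟨e⟩⟩)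
    rintro ⟨-, rfl⟩
    rw [hF] at h1
    exact absurd h1.1 (by decide)
  psp F _ _ _ m hm hs S _ := by
    rintro ⟨e⟩
    have := Fintype.ofFinite F
    exact Or.inr (Or.inr ⟨F, inferInstance, inferInstance, m, ⟨e⟩⟩)

section Quot

variable {A M : Type} [Group A] [Group M]

/-- the kernel of `A → M → M / Z(M)` -/
theorem ker_comp_eq (φ : A →* M) (hs : Function.Surjective φ) (hk : φ.ker ≤ center A) (hM : commutator M = ⊤) :
    ((QuotientGroup.mk' (center M)).comp φ).ker = center A := by
  apply le_antisymm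
  · intro x hx
    have hx1 : φ x ∈ center M := (QuotientGroup.eq_one_iff _).1 (MonoidHom.mem_ker.1 hx)
    have hc : ∀ y, x * y * x⁻¹ * y⁻¹ ∈ center A := by
      intro y
      apply hk
      rw [MonoidHom.mem_ker, map_mul, map_mul, map_mul, map_inv, map_inv,
        ← mem_center_iff.1 hx1 (φ y), mul_inv_cancel_right, mul_inv_cancel]
    let h : A →* ↥(center A) :=
      { toFun := fun y => ⟨x * y * x⁻¹ * y⁻¹, hc y⟩
        map_one' := Subtype.ext (by simp)
        map_mul' := fun y z => Subtype.ext (by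
          change x * (y * z) * x⁻¹ * (y * z)⁻¹ = (x * y * x⁻¹ * y⁻¹) * (x * z * x⁻¹ * z⁻¹)
          have h1 := mem_center_iff.1 (hc z) y⁻¹
          calc x * (y * z) * x⁻¹ * (y * z)⁻¹ = (x * y * x⁻¹) * ((x * z * x⁻¹ * z⁻¹) * y⁻¹) := by group
            _ = (x * y * x⁻¹) * (y⁻¹ * (x * z * x⁻¹ * z⁻¹)) := by rw [h1]
            _ = _ := by group) }
    have hh : ∀ y, h y = 1 ↔ x * y = y * x := by
      intro y
      rw [Subtype.ext_iff]
      change x * y * x⁻¹ * y⁻¹ = 1 ↔ _
      rw [mul_inv_eq_one, mul_inv_eq_iff_eq_mul]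
    have h1 : commutator A ≤ h.ker := by
      rw [_root_.commutator_def, Subgroup.commutator_le]
      intro a _ b _
      rw [MonoidHom.mem_ker, map_commutatorElement, commutatorElement_eq_one_iff_mul_comm]
      exact Subtype.ext (mem_center_iff.1 (h b).2 (h a))
    have h2 : φ.ker ≤ h.ker := fun y hy => by
      rw [MonoidHom.mem_ker, hh]
      exact mem_center_iff.1 (hk hy) x
    rw [mem_center_iff]
    intro y
    have h3 : φ y ∈ (commutator A).map φ := by
      have h4 : (commutator A).map φ = commutator M := by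
        rw [_root_.commutator_def, _root_.commutator_def, Subgroup.map_commutator, ← MonoidHom.range_eq_map,
          MonoidHom.range_eq_top_of_surjective _ hs]
      rw [h4, hM]
      exact mem_top _
    obtain ⟨k, hk1, hk2⟩ := h3
    have h5 : k⁻¹ * y ∈ φ.ker := by
      rw [MonoidHom.mem_ker, map_mul, map_inv, hk2, inv_mul_cancel]
    have h6 : h y = 1 := by
      have h7 : y = k * (k⁻¹ * y) := by group
      rw [h7, map_mul, MonoidHom.mem_ker.1 (h1 hk1), MonoidHom.mem_ker.1 (h2 h5), one_mul]
    exact ((hh y).1 h6).symm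
  · intro x hx
    rw [MonoidHom.mem_ker]
    refine (QuotientGroup.eq_one_iff _).2 (mem_center_iff.2 fun z => ?_)
    obtain ⟨y, rfl⟩ := hs z
    rw [← map_mul, ← map_mul, mem_center_iff.1 hx y]

/-- central quotients -/
theorem quot_equiv (φ : A →* M) (hs : Function.Surjective φ) (hk : φ.ker ≤ center A) (hM : commutator M = ⊤) :
    Nonempty ((M ⧸ center M) ≃* (A ⧸ center A)) := by
  have h1 := ker_comp_eq φ hs hk hM
  exact ⟨((QuotientGroup.quotientMulEquivOfEq h1).symm.trans
    (QuotientGroup.quotientKerEquivOfSurjective _ ((QuotientGroup.mk'_surjective _).comp hs))).symm⟩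

end Quot

/-- **No row** if the composition factors of `C_S(α)` are linear, unitary or symplectic. -/
theorem false_of_cf (hN : PName1) {F : Type} [Field F] [Fintype F] {n : ℕ} {c : Fin n → F} (hc : Sp c)
    {S : Type} [Group S] (r : RowS c S) (h : CF (fun X _ => Cls X) ↥(fx r.α)) : False := by
  obtain ⟨hsub, hq⟩ := r.comp
  have hp : commutator ↥(r.φ.range.subgroupOf (fx r.α)) = ⊤ := hq.1.commutator_eq_top
  have h1 : Cls (↥(r.φ.range.subgroupOf (fx r.α)) ⧸ center ↥(r.φ.range.subgroupOf (fx r.α))) :=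
    h.component hsub hq.2 hp
  let f : Om c →* ↥(r.φ.range.subgroupOf (fx r.α)) :=
    { toFun := fun m => ⟨⟨r.φ m, r.fix m⟩, mem_subgroupOf.2 ⟨m, rfl⟩⟩
      map_one' := Subtype.ext (Subtype.ext (map_one r.φ))
      map_mul' := fun a b => Subtype.ext (Subtype.ext (map_mul r.φ a b)) }
  have hs : Function.Surjective f := by
    rintro ⟨⟨x, hx⟩, hx'⟩
    obtain ⟨m, hm⟩ := mem_subgroupOf.1 hx'
    exact ⟨m, Subtype.ext (Subtype.ext hm)⟩
  have hk : f.ker ≤ center (Om c) := fun m hm => r.ker (by
    rw [MonoidHom.mem_ker] at hm ⊢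
    exact congrArg (fun y : ↥(r.φ.range.subgroupOf (fx r.α)) => ((y : ↥(fx r.α)) : S)) hm)
  obtain ⟨e⟩ := quot_equiv f hs hk hp
  have h2 := hN c hc _ ⟨e⟩
  rcases h1 with h1 | h1 | h1
  · exact h2.2.1 h1
  · exact h2.2.2.1 h1
  · exact h2.2.2.2 h1

end Cfsg.Agent.H990.OI
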