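import Cfsg.Agent.H990.OI.Kill
import Cfsg.Agent.Schreier.ClassPSL
/-!
# S3325: the row `PSL`, odd characteristic (helper990)
-/

set_option autoImplicit false
set_option linter.unusedSectionVars false

namespace Cfsg.Agent.H990.OI

open Subgroup Cfsg Cfsg.Agent.BpLin Cfsg.Agent.H340 Matrix
open Cfsg.Agent.H323.OI hiding cj
open Cfsg.Agent.ClassicalGeometry.AutPSL.Root Cfsg.Agent.ClassicalGeometry.AutPSL.Auto
  Cfsg.Agent.ClassicalGeometry.AutPSL.Main Cfsg.Agent.Schreier.ClassPSL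

/-- a commutator in a product `C T`, `T` commutative, lies in `C` -/
theorem comm_mem {G H : Type*} [Group G] [Group H] (f : G →* H) (C : Subgroup G) (T : Set G)
    (hn : ∀ t ∈ T, ∀ x ∈ C, t * x * t⁻¹ ∈ C) (hT : ∀ t ∈ T, ∀ s ∈ T, t * s = s * t)
    (hs : ∀ α : H, ∃ x ∈ C, ∃ t ∈ T, α = f (x * t)) (α β : H) : α * β * α⁻¹ * β⁻¹ ∈ C.map f := by
  obtain ⟨c, hc, t, ht, rfl⟩ := hs α
  obtain ⟨d, hd, s, hs', rfl⟩ := hs β
  refine ⟨c * (t * d * t⁻¹) * (s * c⁻¹ * s⁻¹) * d⁻¹, ?_, ?_⟩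
  · exact C.mul_mem (C.mul_mem (C.mul_mem hc (hn t ht d hd)) (hn s hs' _ (C.inv_mem hc))) (C.inv_mem hd)
  · rw [← map_inv, ← map_inv, ← map_mul, ← map_mul, ← map_mul]
    congr 1
    have h1 : t⁻¹ * s = s * t⁻¹ := by
      rw [inv_mul_eq_iff_eq_mul, ← mul_assoc, hT t ht s hs', mul_inv_cancel_right]
    calc c * (t * d * t⁻¹) * (s * c⁻¹ * s⁻¹) * d⁻¹ = c * t * d * (t⁻¹ * s) * c⁻¹ * s⁻¹ * d⁻¹ := by group
      _ = c * t * d * (s * t⁻¹) * c⁻¹ * s⁻¹ * d⁻¹ := by rw [h1]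
      _ = _ := by group

/-- **The general form of a row.** `C` contains the inner automorphisms and all commutators. -/
theorem false_of_sub (hN : PName1) {F : Type} [Field F] [Fintype F] {n : ℕ} {c : Fin n → F} (hc : Sp c)
    {S X : Type} [Group S] [Group X] (e : S ≃* X) (C : Subgroup (MulAut X)) (hi : ∀ s : X, MulAut.conj s ∈ C)
    (hcm : ∀ β β' : MulAut X, β * β' * β⁻¹ * β'⁻¹ ∈ C)
    (hcf : ∀ x ∈ C, x * x = 1 → CF (fun Y _ => Cls Y) ↥(fixedSubgroup x)) (r : RowS c S) : False := by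
  let m : MulAut S ≃* MulAut X := MulAut.congr e
  have h1 : m r.α ∈ C := by
    rw [r.eq, map_mul, map_pow, map_mul, map_mul, map_mul, map_inv, map_inv]
    refine C.mul_mem ?_ (C.pow_mem (hcm _ _) _)
    have h2 : m (MulAut.conj (r.φ r.m₀)) = MulAut.conj (e (r.φ r.m₀)) := by
      apply MulEquiv.ext
      intro x
      change e (MulAut.conj (r.φ r.m₀) (e.symm x)) = MulAut.conj (e (r.φ r.m₀)) x
      rw [MulAut.conj_apply, MulAut.conj_apply, map_mul, map_mul, map_inv, e.apply_symm_apply]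
    rw [h2]
    exact hi _
  have h2 : m r.α * m r.α = 1 := by rw [← map_mul, r.aa, map_one]
  have h3 := hcf _ h1 h2
  refine false_of_cf hN hc r (h3.congr ?_)
  have h4 : ∀ x, (m r.α) x = e (r.α (e.symm x)) := fun _ => rfl
  exact
    { toFun := fun k => ⟨e.symm k, by
        have h5 : (m r.α) k.1 = k.1 := k.2
        rw [h4] at h5
        change r.α (e.symm k.1) = e.symm k.1
        exact e.injective (by rw [h5, e.apply_symm_apply])⟩
      invFun := fun k => ⟨e k, by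
        have h5 : r.α k.1 = k.1 := k.2
        change (m r.α) (e k.1) = e k.1
        rw [h4, e.symm_apply_apply, h5]⟩
      left_inv := fun k => Subtype.ext (e.apply_symm_apply _)
      right_inv := fun k => Subtype.ext (e.symm_apply_apply _)
      map_mul' := fun a b => Subtype.ext (map_mul e.symm _ _) }

section PSL

universe u

variable {P : ∀ (S : Type u) [Group S], Prop} {r : ℕ} {F : Type} [Field F] [Finite F] [CharP F r] {n : ℕ}

/-- **Linear and semilinear type.** -/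
theorem cf_psl_linear (hr : r.Prime) (hr2 : r ≠ 2) (hB : BaseN r P) (hn : 2 ≤ n) (A : GL (Fin n) F)
    (σ : F ≃+* F) (h2 : lift (cj A * fld σ) * lift (cj A * fld σ) = 1) :
    CF P ↥(fixedSubgroup (lift (cj A * fld σ) : MulAut (Matrix.ProjectiveSpecialLinearGroup (Fin n) F))) := by
  have hnt : Nontrivial (Fin n) := Fin.nontrivial_iff_two_le.2 hn
  have hNZ : NeZero n := ⟨by omega⟩
  have h3 : lift (cj (A * mg σ A) * fld (σ * σ)) = lift (fld (1 : F ≃+* F)) := by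
    rw [map_one, map_one, ← h2, ← map_mul]
    congr 1
    rw [mul_assoc, ← mul_assoc (fld σ), fld_mul_cj, map_mul cj, map_mul fld]
    simp only [mul_assoc]
  obtain ⟨⟨c, hc⟩, hσ⟩ := injective_aux h3
  have hτ : ∀ T, semi A σ (semi A σ T) = T := semi_semi hc hσ
  have h4 : CF P ↥(fixU (semi A σ)) := cf_fixU hr hr2 hB (semi A σ) hτ
  have h5 : CF P ↥(fixedSubgroup (cj A * fld σ : MulAut (Matrix.SpecialLinearGroup (Fin n) F))) := by
    have hfix : ∀ m : Matrix.SpecialLinearGroup (Fin n) F,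
        (cj A * fld σ : MulAut _) m = m ↔ semi A σ (m : Matrix _ _ F) = m :=
      fun m => ⟨fun h => congrArg Subtype.val h, fun h => Subtype.ext h⟩
    refine CF.fixed_of_normal _ Matrix.SpecialLinearGroup.toGL Matrix.SpecialLinearGroup.toGL_injective h4
      (fun m hm => (hfix m).1 hm) fun c hc m hm => ⟨cj c m, ?_, ?_⟩
    · rw [hfix, coe_cj]
      have h6 : semi A σ ((c⁻¹ : GL (Fin n) F) : Matrix (Fin n) (Fin n) F) =
        ((c⁻¹ : GL (Fin n) F) : Matrix (Fin n) (Fin n) F) := (fixU (semi A σ)).inv_mem hc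
      rw [map_mul, map_mul, h6, (hfix m).1 hm, show semi A σ (c : Matrix _ _ F) = c from hc]
    · apply Units.ext
      rfl
  exact CF.fixed_of_lift pr pr_surjective ker_pr (cj A * fld σ) _ (fun m => (lift_pr _ m).symm) h5

end PSL

/-- the inner automorphisms -/
theorem conj_mem_cj {F : Type} [Field F] {n : ℕ} (s : Matrix.ProjectiveSpecialLinearGroup (Fin n) F) :
    MulAut.conj s ∈ (cj : GL (Fin n) F →* MulAut (Matrix.SpecialLinearGroup (Fin n) F)).range.map lift := by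
  obtain ⟨x, rfl⟩ := pr_surjective s
  refine ⟨cj (Matrix.SpecialLinearGroup.toGL x), ⟨_, rfl⟩, ?_⟩
  apply MulEquiv.ext
  intro y
  obtain ⟨y, rfl⟩ := pr_surjective y
  rw [lift_pr, MulAut.conj_apply, ← map_inv, ← map_mul, ← map_mul]
  congr 1

/-- the commutators -/
theorem comm_mem_cj {F : Type} [Field F] [Finite F] {n : ℕ} (hn : 2 ≤ n)
    (α β : MulAut (Matrix.ProjectiveSpecialLinearGroup (Fin n) F)) :
    α * β * α⁻¹ * β⁻¹ ∈ (cj : GL (Fin n) F →* MulAut (Matrix.SpecialLinearGroup (Fin n) F)).range.map lift := by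
  have := Fintype.ofFinite F
  obtain ⟨p, hp⟩ := CharP.exists F
  have hprime : Fact p.Prime := ⟨CharP.char_is_prime F p⟩
  refine comm_mem lift cj.range {x | ∃ σ : F ≃+* F, x = fld σ ∨ x = fld σ * itr} ?_ ?_ ?_ α β
  · rintro f ⟨σ, rfl | rfl⟩ x hx
    · exact cj_norm_fld σ hx
    · have h1 : fld σ * itr * x * (fld σ * itr)⁻¹ = fld σ * (itr * x * itr⁻¹) * (fld σ)⁻¹ := by
        group
      rw [h1]
      exact cj_norm_fld σ (cj_norm_itr hx)
  · have hff := fun σ τ : F ≃+* F => fld_comm (ι := Fin n) σ τ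
    have hif := fun σ : F ≃+* F => itr_mul_fld (ι := Fin n) σ
    rintro f ⟨σ, rfl | rfl⟩ g ⟨τ, rfl | rfl⟩
    · exact hff σ τ
    · rw [← mul_assoc, hff, mul_assoc, mul_assoc, hif]
    · rw [mul_assoc, hif, ← mul_assoc, hff, mul_assoc]
    · rw [mul_assoc, ← mul_assoc itr, hif, mul_assoc, ← mul_assoc, hff, mul_assoc (fld τ) itr,
        ← mul_assoc itr, hif]
      simp only [mul_assoc]
  · intro α
    rcases Nat.lt_or_ge n 3 with h | h
    · obtain rfl : n = 2 := by omega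
      obtain ⟨A, σ, hA⟩ := surj_two p α
      exact ⟨_, ⟨A, rfl⟩, _, ⟨σ, Or.inl rfl⟩, hA⟩
    · rcases surj_three p h α with ⟨A, σ, hA⟩ | ⟨A, σ, hA⟩
      · exact ⟨_, ⟨A, rfl⟩, _, ⟨σ, Or.inl rfl⟩, hA⟩
      · exact ⟨_, ⟨A, rfl⟩, _, ⟨σ, Or.inr rfl⟩, by rw [hA, mul_assoc]⟩

/-- **Piece 8a of S3325.** -/
theorem pPsl : PName1 → PPsl := by
  intro hN p hp hp2 F _ _ n c hc S _ _ _ r hS
  obtain ⟨K, _, _, _, m, hm, -, ⟨e⟩⟩ := hS
  refine false_of_sub hN hc e ((cj : GL (Fin m) K →* MulAut (Matrix.SpecialLinearGroup (Fin m) K)).range.map lift)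
    conj_mem_cj (comm_mem_cj hm) ?_ r
  rintro _ ⟨_, ⟨A, rfl⟩, rfl⟩ h2
  have h1 : (cj A * fld (1 : K ≃+* K) : MulAut (Matrix.SpecialLinearGroup (Fin m) K)) = cj A := by
    rw [map_one, mul_one]
  rw [← h1] at h2 ⊢
  exact cf_psl_linear hp hp2 (baseN_cls hp hp2) hm A 1 h2

end Cfsg.Agent.H990.OI
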