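import Cfsg.Agent.H990.OI.Base
/-!
# Symplectic similitudes with scalar square: composition factors of the centralizer (helper990)

`cf_sim` : `B` a nondegenerate alternating form over a finite field of odd characteristic `r`, `T` a linear similitude with
`T²` scalar: the isometries commuting with `T` have linear, unitary and symplectic composition factors only.
-/

set_option autoImplicit false
set_option linter.unusedSectionVars false

namespace Cfsg.Agent.H990.OI

open Subgroup Cfsg Cfsg.Agent.BpLin Cfsg.Agent.H340 Cfsg.Agent.H65.CN Module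

universe u

variable {P : ∀ (S : Type u) [Group S], Prop} {r : ℕ}

section Split

variable {F V : Type} [Field F] [AddCommGroup V] [Module F V] {σ : F →+* F}

/-- **Orthogonal eigenspaces.** -/
theorem cf_split (h2 : (2 : F) ≠ 0) {B : V →ₛₗ[σ] V →ₗ[F] F} {T : V ≃ₗ[F] V} {a : F}
    (ha0 : a ≠ 0) (hT : ∀ v, T (T v) = (a * a) • v) (o12 : ∀ x ∈ eg T a, ∀ y ∈ eg T (-a), B x y = 0)
    (o21 : ∀ x ∈ eg T (-a), ∀ y ∈ eg T a, B x y = 0)
    (k1 : CF P ↥(Is (rB B (eg T a)))) (k2 : CF P ↥(Is (rB B (eg T (-a))))) :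
    CF P ↥(Is B ⊓ centralizer ({T} : Set (V ≃ₗ[F] V))) := by
  have h := isCompl_eg h2 ha0 hT
  let N := Is B ⊓ centralizer ({T} : Set (V ≃ₗ[F] V))
  let f1 : ↥N →* ↥(Is (rB B (eg T a))) := (rs N (eg T a) (cent_inv a)).codRestrict _ (fun g x y => g.2.1 x y)
  let f2 : ↥N →* ↥(Is (rB B (eg T (-a)))) :=
    (rs N (eg T (-a)) (cent_inv (-a))).codRestrict _ (fun g x y => g.2.1 x y)
  have hgl : ∀ (g1 : ↥(Is (rB B (eg T a)))) (g2 : ↥(Is (rB B (eg T (-a))))), glue h g1 g2 ∈ N := by
    intro g1 g2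
    refine ⟨fun x y => ?_, mem_centralizer_singleton_iff.2 (glue_comm h g1 g2)⟩
    obtain ⟨x1, x2, rfl⟩ := exists_add h x
    obtain ⟨y1, y2, rfl⟩ := exists_add h y
    rw [glue_add, glue_add, B_add4, B_add4, o12 _ (g1.1 x1).2 _ (g2.1 y2).2, o21 _ (g2.1 x2).2 _ (g1.1 y1).2,
      o12 _ x1.2 _ y2.2, o21 _ x2.2 _ y1.2]
    have e1 : B (g1.1 x1) (g1.1 y1) = B x1 y1 := g1.2 x1 y1
    have e2 : B (g2.1 x2) (g2.1 y2) = B x2 y2 := g2.2 x2 y2
    rw [e1, e2]
  refine cf_two k1 k2 f1 f2 ?_ ?_ ?_
  · intro g1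
    refine ⟨⟨glue h g1 (1 : ↥(Is (rB B (eg T (-a))))), hgl g1 1⟩, ?_⟩
    apply Subtype.ext
    ext u
    exact glue_left h g1.1 _ u
  · intro g2
    refine ⟨⟨glue h (1 : ↥(Is (rB B (eg T a)))) g2, hgl 1 g2⟩, ?_⟩
    apply Subtype.ext
    ext u
    exact glue_right h _ g2.1 u
  · intro g h1 h3
    apply Subtype.ext
    refine ext_of h (fun x => ?_) (fun y => ?_)
    · have h4 := congrArg (fun k : ↥(Is (rB B (eg T a))) => ((k.1 x : eg T a) : V)) h1
      exact h4
    · have h4 := congrArg (fun k : ↥(Is (rB B (eg T (-a)))) => ((k.1 y : eg T (-a)) : V)) h3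
      exact h4

/-- **Totally isotropic eigenspaces.** -/
theorem cf_isot [Finite F] [FiniteDimensional F V] (h2 : (2 : F) ≠ 0) {B : V →ₛₗ[σ] V →ₗ[F] F} (hB : ND B) {ε : F}
    (hε : ∀ x y, B x y = ε * σ (B y x)) {T : V ≃ₗ[F] V} {a : F}
    (ha0 : a ≠ 0) (hT : ∀ v, T (T v) = (a * a) • v) (o11 : ∀ x ∈ eg T a, ∀ y ∈ eg T a, B x y = 0)
    (o22 : ∀ x ∈ eg T (-a), ∀ y ∈ eg T (-a), B x y = 0) (k1 : CF P (eg T a ≃ₗ[F] eg T a)) :
    CF P ↥(Is B ⊓ centralizer ({T} : Set (V ≃ₗ[F] V))) := by
  have h := isCompl_eg h2 ha0 hT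
  have hB' : ∀ x, (∀ y, B x y = 0) → x = 0 := by
    intro x hx
    apply hB
    intro y
    rw [hε, hx, map_zero, mul_zero]
  let N := Is B ⊓ centralizer ({T} : Set (V ≃ₗ[F] V))
  refine k1.congr (MulEquiv.ofBijective (rs N (eg T a) (cent_inv a)) ⟨?_, ?_⟩).symm
  · rw [injective_iff_map_eq_one]
    intro g h1
    have h3 : ∀ x : eg T a, (g : V ≃ₗ[F] V) x = x := by
      intro x
      rw [← rs_apply (cent_inv a) g x, h1]
      rfl
    apply Subtype.ext
    refine ext_of h (fun x => h3 x) (fun y => ?_)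
    change (g : V ≃ₗ[F] V) y = y
    rw [← sub_eq_zero]
    apply hB
    intro v
    obtain ⟨x1, x2, rfl⟩ := exists_add h v
    have h4 : B x2 ((g : V ≃ₗ[F] V) y - y) = 0 :=
      o22 _ x2.2 _ (Submodule.sub_mem _ (cent_inv (-a) _ g.2 _ y.2) y.2)
    have h5 : B x1 ((g : V ≃ₗ[F] V) y - y) = 0 := by
      rw [map_sub, sub_eq_zero]
      have h6 := g.2.1 x1 y
      rw [h3 x1] at h6
      exact h6
    rw [map_add, LinearMap.add_apply, h4, h5, add_zero]
  · intro g1
    obtain ⟨k, hk⟩ := exists_adj hB' ((glue h g1⁻¹ 1 : V ≃ₗ[F] V) : V →ₗ[F] V)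
    have hk2 : ∀ y : eg T (-a), k y ∈ eg T (-a) := by
      intro y
      obtain ⟨z1, z2, hz⟩ := exists_add h (k y)
      have h3 : z1 = 0 := by
        apply Subtype.ext
        apply hB'
        intro v
        obtain ⟨x1, x2, rfl⟩ := exists_add h v
        rw [map_add, o11 _ z1.2 _ x1.2, zero_add]
        have h4 := hk y x2
        rw [hz, map_add, LinearMap.add_apply, o22 _ z2.2 _ x2.2, add_zero] at h4
        rw [h4]
        change B y (glue h g1⁻¹ 1 x2) = 0
        rw [glue_right]
        exact o22 _ y.2 _ x2.2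
      rw [hz, h3, Submodule.coe_zero, zero_add]
      exact z2.2
    let k2 : eg T (-a) →ₗ[F] eg T (-a) := k.restrict (fun y hy => hk2 ⟨y, hy⟩)
    have hk2a : ∀ y : eg T (-a), ((k2 y : eg T (-a)) : V) = k y := fun _ => rfl
    have hkk : ∀ (y : eg T (-a)) (x : eg T a), B (k2 y) (g1 x) = B y x := by
      intro y x
      rw [hk2a, hk]
      change B y (glue h g1⁻¹ 1 (g1 x)) = B y x
      rw [glue_left]
      congr 2
      exact g1.symm_apply_apply x
    have hinj : Function.Injective k2 := by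
      rw [← LinearMap.ker_eq_bot, LinearMap.ker_eq_bot']
      intro y hy
      apply Subtype.ext
      apply hB'
      intro v
      obtain ⟨x1, x2, rfl⟩ := exists_add h v
      rw [map_add, o22 _ y.2 _ x2.2, add_zero, ← hkk, hy, Submodule.coe_zero, map_zero, LinearMap.zero_apply]
    let g2 : eg T (-a) ≃ₗ[F] eg T (-a) := LinearEquiv.ofInjectiveEndo k2 hinj
    have hg2 : ∀ y, g2 y = k2 y := fun _ => rfl
    have hmem : glue h g1 g2 ∈ Is B := by
      intro x y
      obtain ⟨x1, x2, rfl⟩ := exists_add h x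
      obtain ⟨y1, y2, rfl⟩ := exists_add h y
      rw [glue_add, glue_add, B_add4, B_add4, o11 _ (g1 x1).2 _ (g1 y1).2, o22 _ (g2 x2).2 _ (g2 y2).2, o11 _ x1.2 _ y1.2,
        o22 _ x2.2 _ y2.2, hg2, hg2, hkk, hε (g1 x1 : V) (k2 y2 : V), hkk, ← hε]
    refine ⟨⟨glue h g1 g2, hmem, mem_centralizer_singleton_iff.2 (glue_comm h g1 g2)⟩, ?_⟩
    ext u
    rw [rs_apply]
    exact glue_left h g1 g2 u

end Split

section Herm

/-- **The unitary group of a Hermitian form.** -/
theorem cf_herm (hP : BaseN r P) {K V : Type} [Field K] [Finite K] [CharP K r] [AddCommGroup V] [Module K V]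
    [FiniteDimensional K V] {σ : K →+* K} {q : ℕ} (hF : Nat.card K = q ^ 2) (hσ : ∀ x, σ x = x ^ q)
    {B : V →ₛₗ[σ] V →ₗ[K] K} (hS : ∀ x y, σ (B x y) = B y x) (hB : ND B) : CF P ↥(Is B) := by
  classical
  have := Fintype.ofFinite K
  have hF' : Fintype.card K = q ^ 2 := by rw [← Nat.card_eq_fintype_card, hF]
  have hσ2 : ∀ a : K, σ (σ a) = a := by
    intro a
    rw [hσ, hσ, ← pow_mul, ← pow_two, ← hF']
    exact FiniteField.pow_card a
  have hq1 : 1 < q := by
    by_contra hle
    have h1 : 1 < Fintype.card K := Fintype.one_lt_card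
    rw [hF'] at h1
    have h3 : q ^ 2 ≤ 1 ^ 2 := Nat.pow_le_pow_left (by omega) 2
    omega
  have hσ1 : σ ≠ RingHom.id K := by
    intro h1
    have h3 : ∀ x : K, x ^ q = x := fun x => by rw [← hσ, h1]; rfl
    have h4 : Fintype.card K ≤ q := card_le_of_pow hq1 h3
    rw [hF'] at h4
    nlinarith
  have hS' : B.IsSymm := ⟨fun x y => by
    have h1 := hS x y
    exact h1⟩
  obtain ⟨b, hb⟩ := ClassicalGeometry.HermOrthonormal.exists_orthonormal_basis hσ1 hσ2 B hS' (by
    intro x hx
    apply hB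
    intro y
    rw [← hS, hx, map_zero])
  have hform : ∀ x y : V, B x y = hermForm (finrank K V) K q (b.equivFun y) (b.equivFun x) := by
    intro x y
    conv_lhs => rw [← b.sum_equivFun x, ← b.sum_equivFun y]
    rw [map_sum B, LinearMap.sum_apply]
    unfold hermForm
    refine Finset.sum_congr rfl fun i _ => ?_
    rw [map_sum, LinearMap.map_smulₛₗ B]
    simp only [LinearMap.smul_apply, map_smul, hb, smul_eq_mul]
    rw [Finset.sum_eq_single i]
    · rw [if_pos rfl, hσ]
      ring
    · intro j _ hj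
      rw [if_neg (Ne.symm hj)]
      ring
    · intro h1
      exact absurd (Finset.mem_univ i) h1
  let e1 : LinearMap.GeneralLinearGroup K V ≃* (V ≃ₗ[K] V) := LinearMap.GeneralLinearGroup.generalLinearEquiv K V
  let e2 : LinearMap.GeneralLinearGroup K V ≃* GL (Fin (finrank K V)) K :=
    Units.mapEquiv (LinearMap.toMatrixAlgEquiv b).toMulEquiv
  let e : (V ≃ₗ[K] V) ≃* GL (Fin (finrank K V)) K := e1.symm.trans e2
  have he : ∀ (g : V ≃ₗ[K] V) (x : V), ((e g : GL (Fin (finrank K V)) K) : Matrix _ _ K).mulVec (b.equivFun x) =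
      b.equivFun (g x) := by
    intro g x
    exact LinearMap.toMatrix_mulVec_repr b b (g : V →ₗ[K] V) x
  have h2 : (Is B).map e.toMonoidHom = GU (finrank K V) K q := by
    ext A
    obtain ⟨g, rfl⟩ := e.surjective A
    constructor
    · rintro ⟨g', hg', hgg⟩
      have hg : g' = g := e.injective hgg
      subst hg
      intro u v
      have h3 := hg' (b.equivFun.symm v) (b.equivFun.symm u)
      rw [hform, hform, ← he, ← he, LinearEquiv.apply_symm_apply, LinearEquiv.apply_symm_apply] at h3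
      exact h3
    · intro hA
      refine ⟨g, fun x y => ?_, rfl⟩
      rw [hform, hform, ← he, ← he]
      exact hA _ _
  exact (cf_gu hP hF' (finrank K V)).congr
    (((Is B).equivMapOfInjective e.toMonoidHom e.injective).trans (MulEquiv.subgroupCongr h2)).symm

end Herm

section Ext

variable {F V : Type} [Field F] [AddCommGroup V] [Module F V] {c : F} [Module (QuadraticAlgebra F c 0) V]
  {T : V ≃ₗ[F] V} {B : V →ₗ[F] V →ₗ[F] F}

/-- the bilinear form over the quadratic extension, `B(Tv, w) = B(v, Tw)` -/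
noncomputable def bK (B : V →ₗ[F] V →ₗ[F] F) (T : V ≃ₗ[F] V) (hs : ∀ v w, B (T v) w = B v (T w))
    (hT : ∀ v, T (T v) = c • v)
    (hsm : ∀ (z : QuadraticAlgebra F c 0) (v : V), z • v = z.re • v + z.im • T v) :
    V →ₗ[QuadraticAlgebra F c 0] V →ₗ[QuadraticAlgebra F c 0] (QuadraticAlgebra F c 0) :=
  LinearMap.mk₂ (QuadraticAlgebra F c 0) (fun v w => ⟨B v (T w), B v w⟩)
    (by
      intro v w x
      ext
      · simp
      · simp)
    (by
      intro z v w
      rw [hsm]
      ext
      · simp only [map_add, map_smul, LinearMap.add_apply, LinearMap.smul_apply, smul_eq_mul,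
          QuadraticAlgebra.re_mul]
        rw [hs v (T w), hT, map_smul, smul_eq_mul]
        ring
      · simp only [map_add, map_smul, LinearMap.add_apply, LinearMap.smul_apply, smul_eq_mul,
          QuadraticAlgebra.im_mul]
        rw [hs v w]
        ring)
    (by
      intro v w x
      ext
      · simp
      · simp)
    (by
      intro z v w
      rw [hsm]
      ext
      · simp only [map_add, map_smul, smul_eq_mul, QuadraticAlgebra.re_mul]
        rw [hT, map_smul, smul_eq_mul]
        ring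
      · simp only [map_add, map_smul, smul_eq_mul, QuadraticAlgebra.im_mul]
        ring)

theorem bK_apply (hs : ∀ v w, B (T v) w = B v (T w)) (hT : ∀ v, T (T v) = c • v)
    (hsm : ∀ (z : QuadraticAlgebra F c 0) (v : V), z • v = z.re • v + z.im • T v) (v w : V) :
    bK B T hs hT hsm v w = ⟨B v (T w), B v w⟩ := rfl

/-- the Hermitian form over the quadratic extension, `B(Tv, w) = -B(v, Tw)` -/
noncomputable def hK (B : V →ₗ[F] V →ₗ[F] F) (T : V ≃ₗ[F] V) (hs : ∀ v w, B (T v) w = -B v (T w))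
    (hT : ∀ v, T (T v) = c • v)
    (hsm : ∀ (z : QuadraticAlgebra F c 0) (v : V), z • v = z.re • v + z.im • T v) :
    V →ₛₗ[starRingEnd (QuadraticAlgebra F c 0)] V →ₗ[QuadraticAlgebra F c 0] (QuadraticAlgebra F c 0) :=
  LinearMap.mk₂'ₛₗ (starRingEnd (QuadraticAlgebra F c 0)) (RingHom.id _) (fun v w => ⟨B v (T w), B v w⟩)
    (by
      intro v w x
      ext
      · simp
      · simp)
    (by
      intro z v w
      rw [hsm]
      ext
      · simp only [map_add, map_smul, LinearMap.add_apply, LinearMap.smul_apply, smul_eq_mul, starRingEnd_apply,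
          QuadraticAlgebra.re_mul, QuadraticAlgebra.re_star, QuadraticAlgebra.im_star]
        rw [hs v (T w), hT, map_smul, smul_eq_mul]
        ring
      · simp only [map_add, map_smul, LinearMap.add_apply, LinearMap.smul_apply, smul_eq_mul, starRingEnd_apply,
          QuadraticAlgebra.im_mul, QuadraticAlgebra.re_star, QuadraticAlgebra.im_star]
        rw [hs v w]
        ring)
    (by
      intro v w x
      ext
      · simp
      · simp)
    (by
      intro z v w
      rw [hsm]
      ext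
      · simp only [map_add, map_smul, smul_eq_mul, RingHom.id_apply, QuadraticAlgebra.re_mul]
        rw [hT, map_smul, smul_eq_mul]
        ring
      · simp only [map_add, map_smul, smul_eq_mul, RingHom.id_apply, QuadraticAlgebra.im_mul]
        ring)

theorem hK_apply (hs : ∀ v w, B (T v) w = -B v (T w)) (hT : ∀ v, T (T v) = c • v)
    (hsm : ∀ (z : QuadraticAlgebra F c 0) (v : V), z • v = z.re • v + z.im • T v) (v w : V) :
    hK B T hs hT hsm v w = ⟨B v (T w), B v w⟩ := rfl

theorem cf_bK (hs : ∀ v w, B (T v) w = B v (T w)) (hT : ∀ v, T (T v) = c • v)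
    (hsm : ∀ (z : QuadraticAlgebra F c 0) (v : V), z • v = z.re • v + z.im • T v)
    [Fact (∀ r : F, r ^ 2 ≠ c + 0 * r)]
    (k : CF P ↥(Is (bK B T hs hT hsm))) : CF P ↥(Is B ⊓ centralizer ({T} : Set (V ≃ₗ[F] V))) := by
  let f : ↥(Is B ⊓ centralizer ({T} : Set (V ≃ₗ[F] V))) →* ↥(Is (bK B T hs hT hsm)) :=
    (extHom (Is B) hsm).codRestrict _ (by
      intro g x y
      rw [extHom_apply, extHom_apply, bK_apply, bK_apply]
      have h1 : T (g.1 y) = g.1 (T y) :=
        (congrArg (fun f : V ≃ₗ[F] V => f y) (mem_centralizer_singleton_iff.1 g.2.2)).symm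
      rw [h1, g.2.1, g.2.1])
  refine k.congr (MulEquiv.ofBijective f ⟨?_, ?_⟩).symm
  · intro g h hgh
    exact extHom_injective hsm (congrArg Subtype.val hgh)
  · intro g
    refine ⟨⟨down hsm g.1, ?_, mem_centralizer_singleton_iff.2 (down_comm hsm g.1)⟩, ?_⟩
    · intro x y
      have h1 := g.2 x y
      rw [bK_apply, bK_apply] at h1
      exact congrArg QuadraticAlgebra.im h1
    · apply Subtype.ext
      ext v
      rfl

theorem cf_hK (hs : ∀ v w, B (T v) w = -B v (T w)) (hT : ∀ v, T (T v) = c • v)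
    (hsm : ∀ (z : QuadraticAlgebra F c 0) (v : V), z • v = z.re • v + z.im • T v)
    [Fact (∀ r : F, r ^ 2 ≠ c + 0 * r)]
    (k : CF P ↥(Is (hK B T hs hT hsm))) : CF P ↥(Is B ⊓ centralizer ({T} : Set (V ≃ₗ[F] V))) := by
  let f : ↥(Is B ⊓ centralizer ({T} : Set (V ≃ₗ[F] V))) →* ↥(Is (hK B T hs hT hsm)) :=
    (extHom (Is B) hsm).codRestrict _ (by
      intro g x y
      rw [extHom_apply, extHom_apply, hK_apply, hK_apply]
      have h1 : T (g.1 y) = g.1 (T y) :=
        (congrArg (fun f : V ≃ₗ[F] V => f y) (mem_centralizer_singleton_iff.1 g.2.2)).symm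
      rw [h1, g.2.1, g.2.1])
  refine k.congr (MulEquiv.ofBijective f ⟨?_, ?_⟩).symm
  · intro g h hgh
    exact extHom_injective hsm (congrArg Subtype.val hgh)
  · intro g
    refine ⟨⟨down hsm g.1, ?_, mem_centralizer_singleton_iff.2 (down_comm hsm g.1)⟩, ?_⟩
    · intro x y
      have h1 := g.2 x y
      rw [hK_apply, hK_apply] at h1
      exact congrArg QuadraticAlgebra.im h1
    · apply Subtype.ext
      ext v
      rfl

end Ext

section Main

variable {F V : Type} [Field F] [Finite F] [CharP F r] [AddCommGroup V] [Module F V] [FiniteDimensional F V]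

theorem cf_isAlt (hr2 : r ≠ 2) (hP : BaseN r P) {B : V →ₗ[F] V →ₗ[F] F} (hA : ∀ x, B x x = 0) (hB : ND B) :
    CF P ↥(Is B) := by
  have hA' : LinearMap.BilinForm.IsAlt B := hA
  have hnd : ∀ u, (∀ v, B u v = 0) → u = 0 := by
    intro u hu
    apply hB
    intro v
    rw [← LinearMap.BilinForm.IsAlt.neg_eq hA', hu, neg_zero]
  exact cf_bilin hr2 hP hA' hnd

/-- **Similitudes with scalar square.** -/
theorem cf_sim (hr : r.Prime) (hr2 : r ≠ 2) (hP : BaseN r P) {B : V →ₗ[F] V →ₗ[F] F} (hA : ∀ x, B x x = 0)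
    (hB : ND B) {T : V ≃ₗ[F] V} {l a : F} (ha : a ≠ 0) (hl : ∀ u v, B (T u) (T v) = l * B u v)
    (hT : ∀ v, T (T v) = a • v) : CF P ↥(Is B ⊓ centralizer ({T} : Set (V ≃ₗ[F] V))) := by
  have h2 : (2 : F) ≠ 0 := two_ne_zero_of_charP hr hr2
  have hA' : LinearMap.BilinForm.IsAlt B := hA
  have hsk : ∀ x y, B x y = -B y x := fun x y => (LinearMap.BilinForm.IsAlt.neg_eq hA' y x).symm
  by_cases h0 : ∀ u v, B u v = 0
  · have : Subsingleton V := ⟨fun x y => (hB x fun z => h0 z x).trans (hB y fun z => h0 z y).symm⟩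
    have : Subsingleton (V ≃ₗ[F] V) := ⟨fun f g => LinearEquiv.ext fun v => Subsingleton.elim _ _⟩
    exact CF.of_solvable inferInstance
  push Not at h0
  obtain ⟨u, v, huv⟩ := h0
  have hsl : ∀ x y, a * B (T x) y = l * B x (T y) := by
    intro x y
    have h3 := hl x (T y)
    rw [hT, map_smul, smul_eq_mul] at h3
    exact h3
  have hla : l * l = a * a := by
    have h3 := hl (T u) (T v)
    rw [hT, hT, map_smul, map_smul, LinearMap.smul_apply, hl, smul_eq_mul, smul_eq_mul, ← mul_assoc, ← mul_assoc] at h3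
    exact (mul_right_cancel₀ huv h3).symm
  have h2a : ∀ b : F, b ≠ 0 → ∀ x : F, b * x = -(b * x) → x = 0 := by
    intro b hb x hx
    have h3 : (2 * b) * x = 0 := by linear_combination hx
    exact (mul_eq_zero.1 h3).resolve_left (mul_ne_zero h2 hb)
  rcases mul_self_eq_mul_self_iff.1 hla with rfl | rfl
  · have hs : ∀ x y, B (T x) y = B x (T y) := fun x y => mul_left_cancel₀ ha (hsl x y)
    by_cases hsq : IsSquare l
    · obtain ⟨b, rfl⟩ := hsq
      have hb : b ≠ 0 := by
        rintro rfl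
        exact ha (mul_zero 0)
      have hcp := isCompl_eg h2 hb hT
      have o12 : ∀ x ∈ eg T b, ∀ y ∈ eg T (-b), B x y = 0 := by
        intro x hx y hy
        have h3 := hs x y
        rw [mem_eg.1 hx, mem_eg.1 hy, map_smul, map_smul, LinearMap.smul_apply, smul_eq_mul, smul_eq_mul,
          neg_mul] at h3
        exact h2a b hb _ h3
      have o21 : ∀ x ∈ eg T (-b), ∀ y ∈ eg T b, B x y = 0 := by
        intro x hx y hy
        rw [hsk, o12 y hy x hx, neg_zero]
      have n1 : ND (rB B (eg T b)) := rB_nd hB hcp o21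
      have n2 : ND (rB B (eg T (-b))) := rB_nd hB hcp.symm o12
      exact cf_split h2 hb hT o12 o21 (cf_isAlt hr2 hP (B := rB B (eg T b)) (fun x => hA x) n1)
        (cf_isAlt hr2 hP (B := rB B (eg T (-b))) (fun x => hA x) n2)
    · let _ := modE T hT
      have := fact_of hsq
      have : FiniteDimensional (QuadraticAlgebra F l 0) V := finite_ext
      have : Finite (QuadraticAlgebra F l 0) := Finite.of_equiv _ (QuadraticAlgebra.equivProd l 0).symm
      have : CharP (QuadraticAlgebra F l 0) r :=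
        charP_of_injective_algebraMap (algebraMap F (QuadraticAlgebra F l 0)).injective r
      refine cf_bK hs hT (fun z v => rfl) (cf_isAlt hr2 hP (fun x => ?_) fun y hy => ?_)
      · rw [bK_apply]
        have h3 : B x (T x) = 0 := by
          have h4 : B x (T x) = -B x (T x) := by
            conv_lhs => rw [hsk, hs]
          exact h2a 1 one_ne_zero _ (by rw [one_mul]; exact h4)
        ext
        · exact h3
        · exact hA x
      · apply hB
        intro x
        exact congrArg QuadraticAlgebra.im (hy x)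
  · have hs : ∀ x y, B (T x) y = -B x (T y) := fun x y => mul_left_cancel₀ ha (by rw [hsl x y]; ring)
    by_cases hsq : IsSquare a
    · obtain ⟨b, rfl⟩ := hsq
      have hb : b ≠ 0 := by
        rintro rfl
        exact ha (mul_zero 0)
      have o11 : ∀ b' : F, b' ≠ 0 → ∀ x ∈ eg T b', ∀ y ∈ eg T b', B x y = 0 := by
        intro b' hb' x hx y hy
        have h3 := hs x y
        rw [mem_eg.1 hx, mem_eg.1 hy, map_smul, map_smul, LinearMap.smul_apply, smul_eq_mul] at h3
        exact h2a b' hb' _ h3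
      exact cf_isot (σ := RingHom.id F) h2 hB (ε := -1) (fun x y => by rw [hsk, RingHom.id_apply, neg_one_mul]) hb hT
        (o11 b hb) (o11 (-b) (neg_ne_zero.2 hb)) (cf_glV hP)
    · let _ := modE T hT
      have := fact_of hsq
      have : FiniteDimensional (QuadraticAlgebra F a 0) V := finite_ext
      have : Finite (QuadraticAlgebra F a 0) := Finite.of_equiv _ (QuadraticAlgebra.equivProd a 0).symm
      have : CharP (QuadraticAlgebra F a 0) r :=
        charP_of_injective_algebraMap (algebraMap F (QuadraticAlgebra F a 0)).injective r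
      refine cf_hK hs hT (fun z v => rfl) (cf_herm hP (q := Nat.card F) (card_QA _ _) (fun z => star_eq_pow z)
        (fun x y => ?_) fun y hy => ?_)
      · rw [hK_apply, hK_apply, starRingEnd_apply]
        ext
        · rw [QuadraticAlgebra.re_star, zero_mul, add_zero, hsk y (T x), hs, neg_neg]
        · rw [QuadraticAlgebra.im_star, hsk y x]
      · apply hB
        intro x
        exact congrArg QuadraticAlgebra.im (hy x)

end Main

end Cfsg.Agent.H990.OI
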