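import Cfsg.Agent.H990.OI.Psl
import Cfsg.Agent.H990.OI.Sim
/-!
# S3325: the row `PSp`, odd characteristic (helper990)
-/

set_option autoImplicit false
set_option linter.unusedSectionVars false

namespace Cfsg.Agent.H990.OI

open Subgroup Cfsg Cfsg.Agent.BpLin Cfsg.Agent.BpCl Cfsg.Agent.H340
open Cfsg.Agent.H323.OI hiding cj
open Cfsg.Agent.ClassicalGeometry.SympBasic Cfsg.Agent.ClassicalGeometry.SympAutSemi
  Cfsg.Agent.ClassicalGeometry.SympGamma

universe u

section LSim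

variable {m : ℕ} {F : Type} [Field F]

/-- the linear similitudes -/
def lSim (m : ℕ) (F : Type) [Field F] : Subgroup ↥(semiSim m F) where
  carrier := {g | ∃ l : F, l ≠ 0 ∧ IsSemi g.1 (RingEquiv.refl F) l}
  mul_mem' := by
    rintro g h ⟨l, hl, hg⟩ ⟨k, hk, hh⟩
    have h1 := hg.mul hh
    have e : (RingEquiv.refl F).trans (RingEquiv.refl F) = RingEquiv.refl F := RingEquiv.ext fun _ => rfl
    rw [e] at h1
    exact ⟨_, mul_ne_zero hl (by simpa using hk), h1⟩
  one_mem' := ⟨1, one_ne_zero, fun _ _ => rfl, fun _ _ => rfl, fun _ _ => by rw [one_mul]; rfl⟩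
  inv_mem' := by
    rintro g ⟨l, hl, hg⟩
    have h1 := hg.inv hl
    have e : (RingEquiv.refl F).symm = RingEquiv.refl F := RingEquiv.ext fun _ => rfl
    rw [e] at h1
    exact ⟨_, by simpa using hl, h1⟩

theorem conj_mem_lSim (s : PSp m F) : MulAut.conj s ∈ (lSim m F).map (Psi m F) := by
  obtain ⟨A, rfl⟩ := QuotientGroup.mk_surjective s
  refine ⟨⟨rho m F A, RingEquiv.refl F, 1, one_ne_zero, isSemi_rho A⟩, ⟨1, one_ne_zero, isSemi_rho A⟩, ?_⟩
  apply MulEquiv.ext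
  intro y
  obtain ⟨y, rfl⟩ := QuotientGroup.mk_surjective y
  rw [Psi_mk, MulAut.conj_apply]
  have h1 : conjHom m F ⟨rho m F A, RingEquiv.refl F, 1, one_ne_zero, isSemi_rho A⟩ y = A * y * A⁻¹ := by
    apply rho_injective
    rw [rho_conjHom, map_mul, map_mul, map_inv]
  rw [h1]
  rfl

theorem comm_mem_lSim [Finite F] (hm : 2 ≤ m) (h2 : (2 : F) ≠ 0) (α β : MulAut (PSp m F)) :
    α * β * α⁻¹ * β⁻¹ ∈ (lSim m F).map (Psi m F) := by
  have := Fintype.ofFinite F
  obtain ⟨g, rfl⟩ := Cfsg.Agent.ClassicalGeometry.SympAutExists.exists_semi hm α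
    (Cfsg.Agent.ClassicalGeometry.SympAutOddA.recog hm (Or.inr h2) α)
  obtain ⟨h, rfl⟩ := Cfsg.Agent.ClassicalGeometry.SympAutExists.exists_semi hm β
    (Cfsg.Agent.ClassicalGeometry.SympAutOddA.recog hm (Or.inr h2) β)
  refine ⟨g * h * g⁻¹ * h⁻¹, ?_, by simp only [map_mul, map_inv]⟩
  obtain ⟨φ, l, hl, hg⟩ := g.2
  obtain ⟨ψ, k, hk, hh⟩ := h.2
  have h1 := ((hg.mul hh).mul (hg.inv hl)).mul (hh.inv hk)
  have e : ψ.symm.trans (φ.symm.trans (ψ.trans φ)) = RingEquiv.refl F := by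
    apply RingEquiv.ext
    intro x
    change φ (ψ (φ.symm (ψ.symm x))) = x
    have h3 : φ (ψ (φ.symm (ψ.symm x))) = ψ (φ (φ.symm (ψ.symm x))) :=
      DFunLike.congr_fun (Cfsg.Agent.Schreier.ClassBase.ringAut_comm φ ψ) _
    rw [h3, φ.apply_symm_apply, ψ.apply_symm_apply]
  rw [e] at h1
  refine ⟨_, ?_, h1⟩
  simp [hl, hk]

end LSim

variable {P : ∀ (S : Type u) [Group S], Prop} {r : ℕ} {F : Type} [Field F] [Finite F] [CharP F r] {m : ℕ}

theorem cf_psp_of_mem (hr : r.Prime) (hr2 : r ≠ 2) (hP : BaseN r P) (hm : 1 ≤ m)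
    {x : MulAut (PSp m F)} (hx : x * x = 1) (hx' : x ∈ (lSim m F).map (Psi m F)) : CF P ↥(fixedSubgroup x) := by
  obtain ⟨g, ⟨l, hl, hg⟩, rfl⟩ := hx'
  have h1 : Psi m F (g ^ 2) = 1 := by rw [map_pow, pow_two, hx]
  obtain ⟨a, ha⟩ := exists_scal_of_Psi_eq_one hm (g ^ 2) h1
  have hga : ∀ v, g.1 (g.1 v) = (a : F) • v := by
    intro v
    have h2 : (g ^ 2).1 v = g.1 (g.1 v) := by rw [pow_two]; rfl
    rw [← h2, ha, scal_apply]
  let T : (Fin m ⊕ Fin m → F) ≃ₗ[F] (Fin m ⊕ Fin m → F) :=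
    { toFun := g.1
      invFun := g.1.symm
      left_inv := g.1.symm_apply_apply
      right_inv := g.1.apply_symm_apply
      map_add' := hg.1
      map_smul' := hg.2.1 }
  have hT : ∀ v, T v = g.1 v := fun _ => rfl
  have h3 : (sympBilin m F).IsAlt := fun v => sympForm_self v
  have hnd : H65.CN.ND (σ := RingHom.id F) (sympBilin m F) := by
    intro y hy
    refine eq_zero_of_forall_sympForm_right fun v => ?_
    have h4 := h3.neg y v
    have h5 : sympBilin m F v y = 0 := hy v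
    change sympBilin m F y v = 0
    rw [h5, neg_eq_zero] at h4
    exact h4
  have key : CF P ↥(H65.CN.Is (σ := RingHom.id F) (sympBilin m F) ⊓ centralizer {T}) :=
    cf_sim hr hr2 hP (fun v => h3 v) hnd (l := l) a.ne_zero (fun u v => hg.2.2 u v) hga
  have hI : H65.CN.Is (σ := RingHom.id F) (sympBilin m F) ⊓ centralizer {T} =
      Iso (fun u v => sympBilin m F u v) ⊓ CL F g.1 := by
    ext h
    constructor
    · rintro ⟨k1, k2⟩
      refine ⟨fun u v => k1 u v, fun v => ?_⟩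
      exact LinearEquiv.congr_fun (mem_centralizer_singleton_iff.1 k2) v
    · rintro ⟨k1, k2⟩
      refine ⟨fun u v => k1 u v, mem_centralizer_singleton_iff.2 ?_⟩
      exact LinearEquiv.ext fun v => k2 v
  rw [hI, ← map_fixed] at key
  have h2 : CF P ↥(fixedSubgroup (conjHom m F g)) :=
    key.congr ((fixedSubgroup (conjHom m F g)).equivMapOfInjective _ spLin_injective).symm
  exact CF.fixed_of_lift (QuotientGroup.mk' _) (QuotientGroup.mk'_surjective _)
    (fun y hy => (QuotientGroup.eq_one_iff y).1 hy) (conjHom m F g) _ (fun A => (Psi_mk g A).symm) h2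

/-- **Piece 8c of S3325.** -/
theorem pPsp : PName1 → PPsp := by
  intro hN p hp hp2 F _ _ n c hc S _ _ _ r hS
  obtain ⟨K, _, _, _, m, hm, -, ⟨e⟩⟩ := hS
  exact false_of_sub hN hc e ((lSim m K).map (Psi m K)) conj_mem_lSim
    (comm_mem_lSim hm (two_ne_zero_of_charP hp hp2))
    (fun x hx h2 => cf_psp_of_mem hp hp2 (baseN_cls hp hp2) (by omega) h2 hx) r

end Cfsg.Agent.H990.OI
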